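import Mathlib

/-!
# Regrouping the points of an involution into blocks of equal size

`π` is an involution of a linearly ordered type, `S` a finite `π`-invariant set with `m * t`
elements.  Then `S` splits into `t` blocks of size `m` which `π` permutes (each block is
`π`-invariant, or two blocks are interchanged).
-/

set_option autoImplicit false

namespace Cfsg.Agent.Lib.Helper16.SpInv

open Finset

section regroup
variable {ι : Type*} [LinearOrder ι] (π : ι → ι)

/-- `S` is a union of `t` blocks of size `m`, permuted by `π` (block number `g`, permutation `σ`). -/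
def Blocks (m : ℕ) (S : Finset ι) (t : ℕ) : Prop :=
  ∃ (g : ι → ℕ) (σ : ℕ → ℕ), (∀ i ∈ S, g i < t) ∧ (∀ j, j < t → σ j < t) ∧
    (∀ j, j < t → σ (σ j) = j) ∧ (∀ j, j < t → (S.filter (fun i => g i = j)).card = m) ∧
    ∀ i ∈ S, g (π i) = σ (g i)

theorem blocks_empty (m : ℕ) : Blocks π m (∅ : Finset ι) 0 :=
  ⟨fun _ => 0, id, by simp, by simp, by simp, by simp, by simp⟩

theorem blocks_one (m : ℕ) (T : Finset ι) (hT : T.card = m) : Blocks π m T 1 := by
  refine ⟨fun _ => 0, fun _ => 0, by simp, by simp, ?_, ?_, by simp⟩
  · intro j hj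
    show 0 = j
    omega
  · intro j hj
    have hj0 : j = 0 := by omega
    subst hj0
    simpa using hT

theorem blocks_two (hπ : ∀ i, π (π i) = i) (m : ℕ) (T : Finset ι) (hT : T.card = m)
    (hdis : ∀ i ∈ T, π i ∉ T) : Blocks π m (T ∪ T.image π) 2 := by
  have hinj : Function.Injective π := fun a b h => by rw [← hπ a, ← hπ b, h]
  have hdisj : ∀ i ∈ T.image π, i ∉ T := by
    intro i hi hiT
    obtain ⟨k, hk, rfl⟩ := Finset.mem_image.mp hi
    exact hdis k hk hiT
  refine ⟨fun i => if i ∈ T then 0 else 1, fun j => if j = 0 then 1 else 0, ?_, ?_, ?_, ?_, ?_⟩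
  · intro i _
    by_cases h : i ∈ T <;> simp [h]
  · intro j _
    by_cases h : j = 0 <;> simp [h]
  · intro j hj
    by_cases h : j = 0
    · simp [h]
    · have : j = 1 := by omega
      simp [this]
  · intro j hj
    by_cases h : j = 0
    · subst h
      have : (T ∪ T.image π).filter (fun i => (if i ∈ T then 0 else 1) = 0) = T := by
        ext i
        simp only [Finset.mem_filter, Finset.mem_union]
        constructor
        · rintro ⟨_, h2⟩
          by_contra hi
          simp [hi] at h2
        · intro hi
          exact ⟨Or.inl hi, by simp [hi]⟩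
      rw [this, hT]
    · have hj1 : j = 1 := by omega
      subst hj1
      have : (T ∪ T.image π).filter (fun i => (if i ∈ T then 0 else 1) = 1) = T.image π := by
        ext i
        simp only [Finset.mem_filter, Finset.mem_union]
        constructor
        · rintro ⟨h1, h2⟩
          rcases h1 with h1 | h1
          · simp [h1] at h2
          · exact h1
        · intro hi
          exact ⟨Or.inr hi, by simp [hdisj i hi]⟩
      rw [this, Finset.card_image_of_injective _ hinj, hT]
  · intro i hi
    rcases Finset.mem_union.mp hi with h | h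
    · simp [h, hdis i h]
    · obtain ⟨k, hk, rfl⟩ := Finset.mem_image.mp h
      simp [hπ k, hk, hdis k hk]

theorem blocks_union (m : ℕ) (U S' : Finset ι) (t₁ t₂ : ℕ) (hU : Blocks π m U t₁)
    (hS' : Blocks π m S' t₂) (hdisj : ∀ i ∈ U, i ∉ S') (hUinv : ∀ i ∈ U, π i ∈ U)
    (hS'inv : ∀ i ∈ S', π i ∈ S') : Blocks π m (U ∪ S') (t₁ + t₂) := by
  obtain ⟨g₁, σ₁, a1, a2, a3, a4, a5⟩ := hU
  obtain ⟨g₂, σ₂, b1, b2, b3, b4, b5⟩ := hS'
  have hdisj' : ∀ i ∈ S', i ∉ U := fun i hi hiU => hdisj i hiU hi
  refine ⟨fun i => if i ∈ U then g₁ i else t₁ + g₂ i,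
    fun j => if j < t₁ then σ₁ j else t₁ + σ₂ (j - t₁), ?_, ?_, ?_, ?_, ?_⟩
  · intro i hi
    by_cases h : i ∈ U
    · have := a1 i h
      simp only [h, if_true]; omega
    · have hi' : i ∈ S' := (Finset.mem_union.mp hi).resolve_left h
      have := b1 i hi'
      simp only [h, if_false]; omega
  · intro j hj
    by_cases h : j < t₁
    · have := a2 j h
      simp only [h, if_true]; omega
    · have := b2 (j - t₁) (by omega)
      simp only [h, if_false]; omega
  · intro j hj
    by_cases h : j < t₁
    · have h1 := a2 j h
      have h2 := a3 j h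
      simp only [h, if_true, h1, h2]
    · have h1 := b2 (j - t₁) (by omega)
      have h2 := b3 (j - t₁) (by omega)
      have h3 : ¬ (t₁ + σ₂ (j - t₁) < t₁) := by omega
      simp only [h, if_false, h3, Nat.add_sub_cancel_left, h2]
      omega
  · intro j hj
    by_cases h : j < t₁
    · have : (U ∪ S').filter (fun i => (if i ∈ U then g₁ i else t₁ + g₂ i) = j)
          = U.filter (fun i => g₁ i = j) := by
        ext i
        simp only [Finset.mem_filter, Finset.mem_union]
        constructor
        · rintro ⟨h1, h2⟩
          by_cases hi : i ∈ U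
          · simp only [hi, if_true] at h2
            exact ⟨hi, h2⟩
          · simp only [hi, if_false] at h2
            omega
        · rintro ⟨h1, h2⟩
          exact ⟨Or.inl h1, by simp only [h1, if_true]; exact h2⟩
      rw [this]
      exact a4 j h
    · have : (U ∪ S').filter (fun i => (if i ∈ U then g₁ i else t₁ + g₂ i) = j)
          = S'.filter (fun i => g₂ i = j - t₁) := by
        ext i
        simp only [Finset.mem_filter, Finset.mem_union]
        constructor
        · rintro ⟨h1, h2⟩
          by_cases hi : i ∈ U
          · simp only [hi, if_true] at h2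
            have := a1 i hi
            omega
          · simp only [hi, if_false] at h2
            exact ⟨h1.resolve_left hi, by omega⟩
        · rintro ⟨h1, h2⟩
          have hi : i ∉ U := hdisj' i h1
          exact ⟨Or.inr h1, by simp only [hi, if_false]; omega⟩
      rw [this]
      exact b4 (j - t₁) (by omega)
  · intro i hi
    by_cases h : i ∈ U
    · have h1 := hUinv i h
      have h2 := a1 i h
      simp only [h, h1, if_true, h2]
      exact a5 i h
    · have hi' : i ∈ S' := (Finset.mem_union.mp hi).resolve_left h
      have h1 : π i ∉ U := hdisj' _ (hS'inv i hi')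
      have h3 : ¬ (t₁ + g₂ i < t₁) := by omega
      simp only [h, h1, if_false, h3, Nat.add_sub_cancel_left]
      rw [b5 i hi']

/-- The extraction step: a `π`-invariant subset of size `m`, or (when `2 ≤ t`) a subset of size
`m` disjoint from its image. -/
theorem exists_block (hπ : ∀ i, π (π i) = i) (m t : ℕ) (ht : 0 < t) (S : Finset ι)
    (hS : ∀ i ∈ S, π i ∈ S) (hc : S.card = m * t) :
    (∃ T ⊆ S, T.card = m ∧ ∀ i ∈ T, π i ∈ T) ∨
      (2 ≤ t ∧ ∃ T ⊆ S, T.card = m ∧ ∀ i ∈ T, π i ∉ T) := by
  have hinj : Function.Injective π := fun a b h => by rw [← hπ a, ← hπ b, h]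
  by_cases ht1 : t = 1
  · left
    exact ⟨S, Finset.Subset.refl S, by rw [hc, ht1, mul_one], hS⟩
  have ht2 : 2 ≤ t := by omega
  set Fx := S.filter (fun i => π i = i) with hFx
  set R := S.filter (fun i => i < π i) with hR
  set R' := S.filter (fun i => π i < i) with hR'
  have hR'eq : R' = R.image π := by
    ext i
    simp only [hR, hR', Finset.mem_filter, Finset.mem_image]
    constructor
    · rintro ⟨h1, h2⟩
      exact ⟨π i, ⟨hS i h1, by rw [hπ]; exact h2⟩, hπ i⟩
    · rintro ⟨k, ⟨h1, h2⟩, rfl⟩
      exact ⟨hS k h1, by rw [hπ]; exact h2⟩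
  have hR'card : R'.card = R.card := by
    rw [hR'eq, Finset.card_image_of_injective _ hinj]
  have hsplit : S.card = Fx.card + R.card + R'.card := by
    have h1 : S = Fx ∪ (R ∪ R') := by
      ext i
      simp only [hFx, hR, hR', Finset.mem_filter, Finset.mem_union]
      constructor
      · intro hi
        rcases lt_trichotomy i (π i) with h | h | h
        · exact Or.inr (Or.inl ⟨hi, h⟩)
        · exact Or.inl ⟨hi, h.symm⟩
        · exact Or.inr (Or.inr ⟨hi, h⟩)
      · rintro (⟨h, _⟩ | ⟨h, _⟩ | ⟨h, _⟩) <;> exact h
    have h2 : Disjoint R R' := by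
      rw [Finset.disjoint_left]
      intro i hi hi'
      simp only [hR, hR', Finset.mem_filter] at hi hi'
      exact lt_asymm hi.2 hi'.2
    have h3 : Disjoint Fx (R ∪ R') := by
      rw [Finset.disjoint_left]
      intro i hi hi'
      simp only [hFx, hR, hR', Finset.mem_filter, Finset.mem_union] at hi hi'
      rcases hi' with h | h
      · exact absurd hi.2 (ne_of_gt h.2)
      · exact absurd hi.2 (ne_of_lt h.2)
    calc S.card = (Fx ∪ (R ∪ R')).card := by rw [← h1]
      _ = Fx.card + (R ∪ R').card := Finset.card_union_of_disjoint h3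
      _ = Fx.card + (R.card + R'.card) := by rw [Finset.card_union_of_disjoint h2]
      _ = Fx.card + R.card + R'.card := by ring
  have hmt : 2 * m ≤ m * t := by
    calc 2 * m = m * 2 := by ring
      _ ≤ m * t := Nat.mul_le_mul_left m ht2
  by_cases hγ : m ≤ R.card
  · right
    obtain ⟨T, hTR, hTc⟩ := Finset.exists_subset_card_eq hγ
    refine ⟨ht2, T, fun i hi => (Finset.mem_filter.mp (hTR hi)).1, hTc, ?_⟩
    intro i hi hi'
    have h1 := (Finset.mem_filter.mp (hTR hi)).2
    have h2 := (Finset.mem_filter.mp (hTR hi')).2
    rw [hπ] at h2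
    exact lt_asymm h1 h2
  · left
    have hg0 : min R.card (m / 2) ≤ R.card := min_le_left _ _
    obtain ⟨TR, hTR, hTRc⟩ := Finset.exists_subset_card_eq hg0
    have hf : m - 2 * min R.card (m / 2) ≤ Fx.card := by
      rcases le_total R.card (m / 2) with h | h
      · rw [min_eq_left h]; omega
      · rw [min_eq_right h]; omega
    obtain ⟨TF, hTF, hTFc⟩ := Finset.exists_subset_card_eq hf
    have hTRlt : ∀ i ∈ TR, i < π i := fun i hi => (Finset.mem_filter.mp (hTR hi)).2
    have hTFfix : ∀ i ∈ TF, π i = i := fun i hi => (Finset.mem_filter.mp (hTF hi)).2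
    have hd1 : Disjoint TR (TR.image π) := by
      rw [Finset.disjoint_left]
      intro i hi hi'
      obtain ⟨k, hk, rfl⟩ := Finset.mem_image.mp hi'
      have h1 := hTRlt k hk
      have h2 := hTRlt _ hi
      rw [hπ] at h2
      exact lt_asymm h1 h2
    have hd2 : Disjoint (TR ∪ TR.image π) TF := by
      rw [Finset.disjoint_left]
      intro i hi hi'
      have h0 := hTFfix i hi'
      rcases Finset.mem_union.mp hi with h | h
      · have := hTRlt i h
        rw [h0] at this
        exact lt_irrefl _ this
      · obtain ⟨k, hk, rfl⟩ := Finset.mem_image.mp h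
        have := hTRlt k hk
        rw [hπ] at h0
        rw [← h0] at this
        exact lt_irrefl _ this
    refine ⟨TR ∪ TR.image π ∪ TF, ?_, ?_, ?_⟩
    · intro i hi
      rcases Finset.mem_union.mp hi with h | h
      · rcases Finset.mem_union.mp h with h | h
        · exact (Finset.mem_filter.mp (hTR h)).1
        · obtain ⟨k, hk, rfl⟩ := Finset.mem_image.mp h
          exact hS k (Finset.mem_filter.mp (hTR hk)).1
      · exact (Finset.mem_filter.mp (hTF h)).1
    · rw [Finset.card_union_of_disjoint hd2, Finset.card_union_of_disjoint hd1,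
        Finset.card_image_of_injective _ hinj, hTRc, hTFc]
      have : 2 * min R.card (m / 2) ≤ m := by
        have := min_le_right R.card (m / 2)
        omega
      omega
    · intro i hi
      rcases Finset.mem_union.mp hi with h | h
      · rcases Finset.mem_union.mp h with h | h
        · exact Finset.mem_union_left _ (Finset.mem_union_right _ (Finset.mem_image_of_mem π h))
        · obtain ⟨k, hk, rfl⟩ := Finset.mem_image.mp h
          rw [hπ]
          exact Finset.mem_union_left _ (Finset.mem_union_left _ hk)
      · rw [hTFfix i h]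
        exact Finset.mem_union_right _ h

/-- Every finite `π`-invariant set of `m * t` points is a union of `t` blocks of size `m`
permuted by `π`. -/
theorem regroup (hπ : ∀ i, π (π i) = i) (m : ℕ) :
    ∀ (t : ℕ) (S : Finset ι), (∀ i ∈ S, π i ∈ S) → S.card = m * t → Blocks π m S t := by
  have hinj : Function.Injective π := fun a b h => by rw [← hπ a, ← hπ b, h]
  intro t
  induction t using Nat.strong_induction_on with
  | _ t ih =>
    intro S hS hc
    rcases Nat.eq_zero_or_pos t with ht0 | htpos
    · subst ht0
      have hS0 : S = ∅ := Finset.card_eq_zero.mp (by rw [hc, mul_zero])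
      subst hS0
      exact blocks_empty π m
    rcases exists_block π hπ m t htpos S hS hc with ⟨T, hTS, hTc, hTinv⟩ | ⟨ht2, T, hTS, hTc, hTdis⟩
    · have hinv' : ∀ i ∈ S \ T, π i ∈ S \ T := by
        intro i hi
        obtain ⟨h1, h2⟩ := Finset.mem_sdiff.mp hi
        refine Finset.mem_sdiff.mpr ⟨hS i h1, fun h3 => h2 ?_⟩
        have := hTinv _ h3
        rwa [hπ] at this
      have hc' : (S \ T).card = m * (t - 1) := by
        rw [Finset.card_sdiff_of_subset hTS, hc, hTc, Nat.mul_sub, mul_one]
      have h1 := ih (t - 1) (by omega) (S \ T) hinv' hc'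
      have h2 := blocks_union π m T (S \ T) 1 (t - 1) (blocks_one π m T hTc) h1
        (fun i hi hi' => (Finset.mem_sdiff.mp hi').2 hi) hTinv hinv'
      rw [Finset.union_sdiff_of_subset hTS] at h2
      have : 1 + (t - 1) = t := by omega
      rwa [this] at h2
    · set U := T ∪ T.image π with hU
      have hUS : U ⊆ S := by
        intro i hi
        rcases Finset.mem_union.mp hi with h | h
        · exact hTS h
        · obtain ⟨k, hk, rfl⟩ := Finset.mem_image.mp h
          exact hS k (hTS hk)
      have hUinv : ∀ i ∈ U, π i ∈ U := by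
        intro i hi
        rcases Finset.mem_union.mp hi with h | h
        · exact Finset.mem_union_right _ (Finset.mem_image_of_mem π h)
        · obtain ⟨k, hk, rfl⟩ := Finset.mem_image.mp h
          rw [hπ]
          exact Finset.mem_union_left _ hk
      have hUc : U.card = 2 * m := by
        have hd : Disjoint T (T.image π) := by
          rw [Finset.disjoint_left]
          intro i hi hi'
          obtain ⟨k, hk, rfl⟩ := Finset.mem_image.mp hi'
          exact hTdis k hk hi
        rw [hU, Finset.card_union_of_disjoint hd, Finset.card_image_of_injective _ hinj, hTc]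
        ring
      have hinv' : ∀ i ∈ S \ U, π i ∈ S \ U := by
        intro i hi
        obtain ⟨h1, h2⟩ := Finset.mem_sdiff.mp hi
        refine Finset.mem_sdiff.mpr ⟨hS i h1, fun h3 => h2 ?_⟩
        have := hUinv _ h3
        rwa [hπ] at this
      have hc' : (S \ U).card = m * (t - 2) := by
        rw [Finset.card_sdiff_of_subset hUS, hc, hUc, Nat.mul_sub]
        ring_nf
      have h1 := ih (t - 2) (by omega) (S \ U) hinv' hc'
      have h2 := blocks_union π m U (S \ U) 2 (t - 2) (blocks_two π hπ m T hTc hTdis) h1
        (fun i hi hi' => (Finset.mem_sdiff.mp hi').2 hi) hUinv hinv'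
      rw [Finset.union_sdiff_of_subset hUS] at h2
      have : 2 + (t - 2) = t := by omega
      rwa [this] at h2

end regroup

end Cfsg.Agent.Lib.Helper16.SpInv
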