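import Mathlib
import Cfsg.Agent.Lib.Helper99.Symp
import Cfsg.Agent.Lib.Helper16.SpInv.Regroup

/-!
# Isometries with scalar square of an alternating space

`B` a nondegenerate alternating form on `V`, `X` an isometry with `X ∘ X = z • id`
(`z = 1`, or `z = -1` in characteristic not two).  Then `V` is an orthogonal sum of planes, each
`X`-invariant or interchanged with another one by `X`; regrouping the planes gives, whenever
`dim V = 2 m t`, an orthogonal decomposition into `t` nondegenerate subspaces of dimension `2 m`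
permuted by `X`.
-/

set_option autoImplicit false

namespace Cfsg.Agent.Lib.Helper16.SpInv

open Module Cfsg.Agent.Lib.Helper99

section planes
variable {F V : Type*} [Field F] [AddCommGroup V] [Module F V]

theorem alt_swap {B : LinearMap.BilinForm F V} (hB : B.IsAlt) {u v : V} (h : B u v = 0) :
    B v u = 0 := by
  rw [← hB.neg_eq u v, h, neg_zero]

theorem nondeg_of_orth {B : LinearMap.BilinForm F V} {κ : Type*} (Q : κ → Submodule F V)
    (horth : ∀ k k', k ≠ k' → ∀ u ∈ Q k, ∀ v ∈ Q k', B u v = 0) (hsup : ⨆ k, Q k = ⊤)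
    (hnd : ∀ u, (∀ v, B u v = 0) → u = 0) (k : κ) : NondegOn B (Q k) := by
  classical
  intro u hu h
  apply hnd
  intro v
  have hv : v ∈ ⨆ k, Q k := by rw [hsup]; exact Submodule.mem_top
  have h1 : (⨆ k, Q k) ≤ LinearMap.ker (B u) := by
    refine iSup_le (fun k' v' hv' => ?_)
    rw [LinearMap.mem_ker]
    by_cases hk : k' = k
    · subst hk; exact h v' hv'
    · exact horth k k' (Ne.symm hk) u hu v' hv'
  exact LinearMap.mem_ker.mp (h1 hv)

theorem indep_of_orth {B : LinearMap.BilinForm F V} {κ : Type*} (Q : κ → Submodule F V)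
    (horth : ∀ k k', k ≠ k' → ∀ u ∈ Q k, ∀ v ∈ Q k', B u v = 0)
    (hnd : ∀ k, NondegOn B (Q k)) : iSupIndep Q := by
  intro k
  rw [Submodule.disjoint_def]
  intro x hx hx'
  apply hnd k x hx
  intro v hv
  have h1 : (⨆ (k') (_ : k' ≠ k), Q k') ≤ LinearMap.ker (B.flip v) := by
    refine iSup₂_le (fun k' hk' x' hx' => ?_)
    rw [LinearMap.mem_ker, LinearMap.BilinForm.flip_apply]
    exact horth k' k hk' x' hx' v hv
  have := LinearMap.mem_ker.mp (h1 hx')
  rwa [LinearMap.BilinForm.flip_apply] at this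

theorem finrank_sup_orth [FiniteDimensional F V] {B : LinearMap.BilinForm F V} {κ : Type*}
    (Q : κ → Submodule F V) (horth : ∀ k k', k ≠ k' → ∀ u ∈ Q k, ∀ v ∈ Q k', B u v = 0)
    (hnd : ∀ k, NondegOn B (Q k)) (s : Finset κ) :
    finrank F ↥(s.sup Q) = ∑ k ∈ s, finrank F ↥(Q k) := by
  classical
  induction s using Finset.induction_on with
  | empty => simp
  | insert a s ha ih =>
    rw [Finset.sup_insert, Finset.sum_insert ha, ← ih]
    have h1 := Submodule.finrank_sup_add_finrank_inf_eq (Q a) (s.sup Q)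
    have h2 : Q a ⊓ s.sup Q = ⊥ := by
      rw [eq_bot_iff]
      intro x hx
      obtain ⟨hx1, hx2⟩ := Submodule.mem_inf.mp hx
      rw [Submodule.mem_bot]
      apply hnd a x hx1
      intro v hv
      have h3 : s.sup Q ≤ LinearMap.ker (B.flip v) := by
        refine Finset.sup_le (fun k hk x' hx' => ?_)
        rw [LinearMap.mem_ker, LinearMap.BilinForm.flip_apply]
        exact horth k a (fun h => ha (h ▸ hk)) x' hx' v hv
      have := LinearMap.mem_ker.mp (h3 hx2)
      rwa [LinearMap.BilinForm.flip_apply] at this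
    rw [h2, finrank_bot] at h1
    omega

theorem orth_finset_sup {B : LinearMap.BilinForm F V} {κ : Type*} (Q : κ → Submodule F V)
    (s s' : Finset κ) (h : ∀ k ∈ s, ∀ k' ∈ s', ∀ u ∈ Q k, ∀ v ∈ Q k', B u v = 0) :
    ∀ u ∈ s.sup Q, ∀ v ∈ s'.sup Q, B u v = 0 := by
  intro u hu v hv
  have h1 : s'.sup Q ≤ LinearMap.ker (B u) := by
    refine Finset.sup_le (fun k' hk' v' hv' => ?_)
    rw [LinearMap.mem_ker]
    have h2 : s.sup Q ≤ LinearMap.ker (B.flip v') := by
      refine Finset.sup_le (fun k hk u' hu' => ?_)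
      rw [LinearMap.mem_ker, LinearMap.BilinForm.flip_apply]
      exact h k hk k' hk' u' hu' v' hv'
    have := LinearMap.mem_ker.mp (h2 hu)
    rwa [LinearMap.BilinForm.flip_apply] at this
  exact LinearMap.mem_ker.mp (h1 hv)

theorem finrank_plane {B : LinearMap.BilinForm F V} (hB : B.IsAlt) {u v : V} (hne : B u v ≠ 0) :
    finrank F ↥(Submodule.span F ({u, v} : Set V)) = 2 := by
  have hli : LinearIndependent F ![u, v] := by
    rw [LinearIndependent.pair_iff]
    intro s t hst
    have h1 : B (s • u + t • v) v = 0 := by rw [hst]; simp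
    have h2 : B u (s • u + t • v) = 0 := by rw [hst]; simp
    simp only [map_add, map_smul, LinearMap.add_apply, LinearMap.smul_apply, smul_eq_mul,
      hB.self_eq_zero, mul_zero, add_zero, zero_add] at h1 h2
    exact ⟨(mul_eq_zero.mp h1).resolve_right hne, (mul_eq_zero.mp h2).resolve_right hne⟩
  have h3 : finrank F ↥(Submodule.span F (Set.range ![u, v])) = 2 := by
    rw [finrank_span_eq_card hli, Fintype.card_fin]
  have h4 : Set.range ![u, v] = ({u, v} : Set V) := by
    simp [Matrix.range_cons, Set.pair_comm]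
  rw [h4] at h3
  exact h3

theorem perp2_all {B : LinearMap.BilinForm F V} {u v y : V} (hy : y ∈ perp2 B u v) :
    ∀ p ∈ Submodule.span F ({u, v} : Set V), B y p = 0 := by
  rw [mem_perp2] at hy
  intro p hp
  have h1 : Submodule.span F ({u, v} : Set V) ≤ LinearMap.ker (B y) := by
    rw [Submodule.span_le]
    intro x hx
    have hx' : x = u ∨ x = v := by simpa using hx
    rcases hx' with h | h
    · rw [h]; exact LinearMap.mem_ker.mpr hy.1
    · rw [h]; exact LinearMap.mem_ker.mpr hy.2
  exact LinearMap.mem_ker.mp (h1 hp)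

theorem plane_sup_perp2 {B : LinearMap.BilinForm F V} (hB : B.IsAlt) {M : Submodule F V}
    {u v : V} (hu : u ∈ M) (hv : v ∈ M) (hne : B u v ≠ 0) :
    Submodule.span F ({u, v} : Set V) ⊔ (M ⊓ perp2 B u v) = M := by
  apply le_antisymm
  · refine sup_le ?_ inf_le_left
    rw [Submodule.span_le]
    intro x hx
    have hx' : x = u ∨ x = v := by simpa using hx
    rcases hx' with h | h
    · rw [h]; exact hu
    · rw [h]; exact hv
  · intro m hm
    obtain ⟨m', hm', α, β, rfl⟩ := perp2_decomp hB hu hv hne hm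
    have h1 : m' + α • u + β • v = (α • u + β • v) + m' := by abel
    rw [h1]
    exact Submodule.add_mem_sup
      (Submodule.add_mem _ (Submodule.smul_mem _ _ (Submodule.subset_span (by simp)))
        (Submodule.smul_mem _ _ (Submodule.subset_span (by simp)))) hm'

theorem perp2_lt {B : LinearMap.BilinForm F V} {M : Submodule F V} {u v : V} (hu : u ∈ M)
    (hne : B u v ≠ 0) : M ⊓ perp2 B u v < M := by
  refine lt_of_le_of_ne inf_le_left (fun heq => ?_)
  have h1 : u ∈ M ⊓ perp2 B u v := by rw [heq]; exact hu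
  exact hne ((mem_perp2 B u v u).mp (Submodule.mem_inf.mp h1).2).2

theorem map_eq_of_inv (X : V →ₗ[F] V) {z : F} (hz0 : z ≠ 0) (hX : ∀ v, X (X v) = z • v)
    (S : Submodule F V) (h : ∀ y ∈ S, X y ∈ S) : S.map X = S := by
  apply le_antisymm
  · rintro _ ⟨y, hy, rfl⟩
    exact h y hy
  · intro y hy
    refine ⟨z⁻¹ • X y, S.smul_mem _ (h y hy), ?_⟩
    rw [map_smul, hX, smul_smul, inv_mul_cancel₀ hz0, one_smul]

/-- `M` is an orthogonal sum of planes which `X` permutes (an involution `π` of the index set). -/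
def PlaneFam (B : LinearMap.BilinForm F V) (X : V →ₗ[F] V) (M : Submodule F V) : Prop :=
  ∃ (ι : Type) (_ : Fintype ι) (P : ι → Submodule F V) (π : ι → ι),
    (∀ i, π (π i) = i) ∧ (∀ i, finrank F ↥(P i) = 2) ∧
    (∀ i i', i ≠ i' → ∀ u ∈ P i, ∀ v ∈ P i', B u v = 0) ∧ (⨆ i, P i = M) ∧
    (∀ i, (P i).map X = P (π i))

theorem planeFam_bot (B : LinearMap.BilinForm F V) (X : V →ₗ[F] V) : PlaneFam B X ⊥ :=
  ⟨PEmpty, inferInstance, fun _ => ⊥, id, fun i => i.elim, fun i => i.elim, fun i => i.elim,
    by simp, fun i => i.elim⟩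

theorem planeFam_single (B : LinearMap.BilinForm F V) (X : V →ₗ[F] V) (P : Submodule F V)
    (h2 : finrank F ↥P = 2) (hm : P.map X = P) : PlaneFam B X P :=
  ⟨Unit, inferInstance, fun _ => P, id, fun _ => rfl, fun _ => h2,
    fun i i' hne => absurd (Subsingleton.elim i i') hne, by simp, fun _ => hm⟩

theorem planeFam_pair {B : LinearMap.BilinForm F V} (hB : B.IsAlt) (X : V →ₗ[F] V)
    (P Q : Submodule F V) (hP : finrank F ↥P = 2) (hQ : finrank F ↥Q = 2) (hPQ : P.map X = Q)
    (hQP : Q.map X = P) (horth : ∀ u ∈ P, ∀ v ∈ Q, B u v = 0) : PlaneFam B X (P ⊔ Q) := by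
  refine ⟨Bool, inferInstance, fun b => if b then Q else P, fun b => !b, by simp, ?_, ?_, ?_, ?_⟩
  · intro b
    cases b <;> simp [hP, hQ]
  · intro b b' hne u hu v hv
    cases b <;> cases b'
    · exact absurd rfl hne
    · simp only [Bool.false_eq_true, if_false] at hu
      simp only [if_true] at hv
      exact horth u hu v hv
    · simp only [if_true] at hu
      simp only [Bool.false_eq_true, if_false] at hv
      exact alt_swap hB (horth v hv u hu)
    · exact absurd rfl hne
  · rw [iSup_bool_eq]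
    simp [sup_comm]
  · intro b
    cases b <;> simp [hPQ, hQP]

theorem planeFam_sup {B : LinearMap.BilinForm F V} (hB : B.IsAlt) (X : V →ₗ[F] V)
    (N M' : Submodule F V) (hN : PlaneFam B X N) (hM' : PlaneFam B X M')
    (horth : ∀ u ∈ N, ∀ v ∈ M', B u v = 0) : PlaneFam B X (N ⊔ M') := by
  obtain ⟨ι₁, _, P₁, π₁, a1, a2, a3, a4, a5⟩ := hN
  obtain ⟨ι₂, _, P₂, π₂, b1, b2, b3, b4, b5⟩ := hM'
  have hle1 : ∀ i, P₁ i ≤ N := fun i => a4 ▸ le_iSup P₁ i
  have hle2 : ∀ i, P₂ i ≤ M' := fun i => b4 ▸ le_iSup P₂ i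
  refine ⟨ι₁ ⊕ ι₂, inferInstance, Sum.elim P₁ P₂, Sum.map π₁ π₂, ?_, ?_, ?_, ?_, ?_⟩
  · rintro (i | i) <;> simp [a1, b1]
  · rintro (i | i)
    · exact a2 i
    · exact b2 i
  · rintro (i | i) (i' | i') hne u hu v hv
    · exact a3 i i' (fun h => hne (by rw [h])) u hu v hv
    · exact horth u (hle1 i hu) v (hle2 i' hv)
    · exact alt_swap hB (horth v (hle1 i' hv) u (hle2 i hu))
    · exact b3 i i' (fun h => hne (by rw [h])) u hu v hv
  · rw [iSup_sum]
    simp [a4, b4]
  · rintro (i | i) <;> simp [a5, b5]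

theorem plane_step {B : LinearMap.BilinForm F V} (hB : B.IsAlt) (X : V →ₗ[F] V)
    (hinv : ∀ u v, B (X u) (X v) = B u v) (z : F) (hz : z = 1 ∨ (z = -1 ∧ (2 : F) ≠ 0))
    (hX : ∀ v, X (X v) = z • v) (M : Submodule F V) (hM : NondegOn B M)
    (hMX : ∀ v ∈ M, X v ∈ M) (hM0 : M ≠ ⊥) :
    ∃ W M' : Submodule F V, PlaneFam B X W ∧ W ⊔ M' = M ∧ (∀ u ∈ W, ∀ v ∈ M', B u v = 0) ∧
      M' < M ∧ NondegOn B M' ∧ ∀ v ∈ M', X v ∈ M' := by
  have hz0 : z ≠ 0 := by
    rcases hz with rfl | ⟨rfl, _⟩
    · exact one_ne_zero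
    · exact neg_ne_zero.mpr one_ne_zero
  have key : ∀ u v : V, u ∈ M → v ∈ M → B u v ≠ 0 →
      (∀ y ∈ Submodule.span F ({u, v} : Set V), X y ∈ Submodule.span F ({u, v} : Set V)) →
      ∃ W M' : Submodule F V, PlaneFam B X W ∧ W ⊔ M' = M ∧ (∀ u ∈ W, ∀ v ∈ M', B u v = 0) ∧
        M' < M ∧ NondegOn B M' ∧ ∀ v ∈ M', X v ∈ M' := by
    intro u v hu hv hne hPinv
    have hmap := map_eq_of_inv X hz0 hX _ hPinv
    refine ⟨Submodule.span F {u, v}, M ⊓ perp2 B u v,
      planeFam_single B X _ (finrank_plane hB hne) hmap, plane_sup_perp2 hB hu hv hne, ?_,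
      perp2_lt hu hne, nondegOn_perp2 hB hM hu hv hne, ?_⟩
    · intro a ha b hb
      exact alt_swap hB (perp2_all (Submodule.mem_inf.mp hb).2 a ha)
    · intro y hy
      obtain ⟨hy1, hy2⟩ := Submodule.mem_inf.mp hy
      refine Submodule.mem_inf.mpr ⟨hMX y hy1, ?_⟩
      have hall := perp2_all hy2
      have hsurj : ∀ p ∈ Submodule.span F ({u, v} : Set V), B (X y) p = 0 := by
        intro p hp
        have hp2 : p ∈ (Submodule.span F ({u, v} : Set V)).map X := by rw [hmap]; exact hp
        obtain ⟨p', hp', rfl⟩ := hp2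
        rw [hinv]
        exact hall p' hp'
      rw [mem_perp2]
      exact ⟨hsurj u (Submodule.subset_span (by simp)), hsurj v (Submodule.subset_span (by simp))⟩
  by_cases h1 : ∃ w ∈ M, B w (X w) ≠ 0
  · obtain ⟨w, hw, hne⟩ := h1
    apply key w (X w) hw (hMX w hw) hne
    intro y hy
    have h2 : Submodule.span F ({w, X w} : Set V) ≤
        (Submodule.span F ({w, X w} : Set V)).comap X := by
      rw [Submodule.span_le]
      intro x hx
      have hx' : x = w ∨ x = X w := by simpa using hx
      rcases hx' with hx' | hx'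
      · rw [hx']
        exact Submodule.mem_comap.mpr (Submodule.subset_span (by simp))
      · rw [hx']
        apply Submodule.mem_comap.mpr
        rw [hX]
        exact Submodule.smul_mem _ _ (Submodule.subset_span (by simp))
    exact h2 hy
  · push Not at h1
    have hXX : ∀ v, X (X v) = v := by
      rcases hz with rfl | ⟨rfl, h2⟩
      · intro v; rw [hX, one_smul]
      · exfalso
        obtain ⟨u, hu, hu0⟩ := (Submodule.ne_bot_iff M).mp hM0
        apply hu0
        apply hM u hu
        intro v hv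
        have h3 := h1 (u + X v) (M.add_mem hu (hMX v hv))
        have h4 := h1 u hu
        have h8 : X (X v) = -v := by rw [hX, neg_smul, one_smul]
        have h5 : B (X v) v = 0 := by
          have h50 := h1 (X v) (hMX v hv)
          rw [h8, map_neg, neg_eq_zero] at h50
          exact h50
        have h6 : B (X v) (X u) = B v u := hinv v u
        have h7 : B v u = - B u v := (hB.neg_eq u v).symm
        have h10 : B (u + X v) (X (u + X v)) =
            B u (X u) + B u (X (X v)) + (B (X v) (X u) + B (X v) (X (X v))) := by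
          simp only [map_add, LinearMap.add_apply]
          ring
        rw [h10, h8, h4, h6, h7] at h3
        simp only [map_neg, h5, neg_zero, add_zero, zero_add] at h3
        have h9 : (2 : F) * B u v = 0 := by linear_combination (-1 : F) * h3
        exact (mul_eq_zero.mp h9).resolve_left h2
    by_cases h2 : ∃ u ∈ M, X u ∉ Submodule.span F ({u} : Set V)
    · obtain ⟨u, hu, hXu⟩ := h2
      have hv : ∃ v ∈ M, B u v ≠ 0 ∧ B (X u) v = 0 := by
        by_contra hcon
        push Not at hcon
        have hXu0 : X u ≠ 0 := fun h => hXu (by rw [h]; exact Submodule.zero_mem _)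
        have h3 : ∃ v₀ ∈ M, B (X u) v₀ ≠ 0 := by
          by_contra h4
          push Not at h4
          exact hXu0 (hM (X u) (hMX u hu) h4)
        obtain ⟨v₀, hv₀, hne₀⟩ := h3
        have h5 : u - (B u v₀ / B (X u) v₀) • X u = 0 := by
          apply hM _ (M.sub_mem hu (M.smul_mem _ (hMX u hu)))
          intro v hv
          have h6 : B (X u) (v - (B (X u) v / B (X u) v₀) • v₀) = 0 := by
            simp only [map_sub, map_smul, smul_eq_mul]
            field_simp
            ring
          have h7 : B u (v - (B (X u) v / B (X u) v₀) • v₀) = 0 := by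
            by_contra h8
            exact hcon _ (M.sub_mem hv (M.smul_mem _ hv₀)) h8 h6
          simp only [map_sub, map_smul, smul_eq_mul, LinearMap.sub_apply,
            LinearMap.smul_apply] at h7 ⊢
          field_simp
          field_simp at h7
          linear_combination h7
        apply hXu
        have h9 : u = (B u v₀ / B (X u) v₀) • X u := sub_eq_zero.mp h5
        have h10 : X u = (B u v₀ / B (X u) v₀) • u := by
          calc X u = X ((B u v₀ / B (X u) v₀) • X u) := by rw [← h9]
            _ = (B u v₀ / B (X u) v₀) • u := by rw [map_smul, hXX]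
        rw [h10]
        exact Submodule.smul_mem _ _ (Submodule.mem_span_singleton_self u)
      obtain ⟨v, hv, hne, hXuv⟩ := hv
      have hne' : B (X u) (X v) ≠ 0 := by rw [hinv]; exact hne
      have e1 : B (X u) u = 0 := alt_swap hB (h1 u hu)
      have e2 : B (X v) v = 0 := alt_swap hB (h1 v hv)
      have e3 : B (X v) u = 0 := by
        have h3 : B (X v) (X (X u)) = B v (X u) := hinv v (X u)
        rw [hXX] at h3
        rw [h3]
        exact alt_swap hB hXuv
      have hXu1 : X u ∈ M ⊓ perp2 B u v :=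
        Submodule.mem_inf.mpr ⟨hMX u hu, (mem_perp2 _ _ _ _).mpr ⟨e1, hXuv⟩⟩
      have hXv1 : X v ∈ M ⊓ perp2 B u v :=
        Submodule.mem_inf.mpr ⟨hMX v hv, (mem_perp2 _ _ _ _).mpr ⟨e3, e2⟩⟩
      have hM₁nd : NondegOn B (M ⊓ perp2 B u v) := nondegOn_perp2 hB hM hu hv hne
      have hPQ : (Submodule.span F ({u, v} : Set V)).map X =
          Submodule.span F ({X u, X v} : Set V) := by
        rw [Submodule.map_span, Set.image_pair]
      have hQP : (Submodule.span F ({X u, X v} : Set V)).map X =
          Submodule.span F ({u, v} : Set V) := by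
        rw [Submodule.map_span, Set.image_pair, hXX, hXX]
      have hQM₁ : Submodule.span F ({X u, X v} : Set V) ≤ M ⊓ perp2 B u v := by
        rw [Submodule.span_le]
        intro x hx
        have hx' : x = X u ∨ x = X v := by simpa using hx
        rcases hx' with h | h
        · rw [h]; exact hXu1
        · rw [h]; exact hXv1
      have horthPQ : ∀ a ∈ Submodule.span F ({u, v} : Set V),
          ∀ b ∈ Submodule.span F ({X u, X v} : Set V), B a b = 0 := by
        intro a ha b hb
        exact alt_swap hB (perp2_all (Submodule.mem_inf.mp (hQM₁ hb)).2 a ha)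
      refine ⟨Submodule.span F ({u, v} : Set V) ⊔ Submodule.span F ({X u, X v} : Set V),
        (M ⊓ perp2 B u v) ⊓ perp2 B (X u) (X v),
        planeFam_pair hB X _ _ (finrank_plane hB hne) (finrank_plane hB hne') hPQ hQP horthPQ,
        ?_, ?_, ?_, nondegOn_perp2 hB hM₁nd hXu1 hXv1 hne', ?_⟩
      · rw [sup_assoc, plane_sup_perp2 hB hXu1 hXv1 hne', plane_sup_perp2 hB hu hv hne]
      · intro a ha b hb
        obtain ⟨p, hp, q, hq, rfl⟩ := Submodule.mem_sup.mp ha
        obtain ⟨hb1, hb2⟩ := Submodule.mem_inf.mp hb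
        have hb3 := (Submodule.mem_inf.mp hb1).2
        rw [map_add, LinearMap.add_apply, alt_swap hB (perp2_all hb3 p hp),
          alt_swap hB (perp2_all hb2 q hq), add_zero]
      · exact lt_of_le_of_lt inf_le_left (perp2_lt hu hne)
      · intro y hy
        obtain ⟨hy1, hy2⟩ := Submodule.mem_inf.mp hy
        obtain ⟨hy3, hy4⟩ := Submodule.mem_inf.mp hy1
        rw [mem_perp2] at hy2 hy4
        refine Submodule.mem_inf.mpr ⟨Submodule.mem_inf.mpr ⟨hMX y hy3, ?_⟩, ?_⟩
        · rw [mem_perp2]
          constructor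
          · have h3 := hinv y (X u)
            rw [hXX] at h3
            rw [h3]; exact hy2.1
          · have h3 := hinv y (X v)
            rw [hXX] at h3
            rw [h3]; exact hy2.2
        · rw [mem_perp2]
          exact ⟨by rw [hinv]; exact hy4.1, by rw [hinv]; exact hy4.2⟩
    · push Not at h2
      obtain ⟨u, hu, hu0⟩ := (Submodule.ne_bot_iff M).mp hM0
      have h3 : ∃ v ∈ M, B u v ≠ 0 := by
        by_contra h4
        push Not at h4
        exact hu0 (hM u hu h4)
      obtain ⟨v, hv, hne⟩ := h3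
      apply key u v hu hv hne
      intro y hy
      have h4 : Submodule.span F ({u, v} : Set V) ≤
          (Submodule.span F ({u, v} : Set V)).comap X := by
        rw [Submodule.span_le]
        intro x hx
        have hx' : x = u ∨ x = v := by simpa using hx
        have hxM : x ∈ M := by
          rcases hx' with h | h
          · rw [h]; exact hu
          · rw [h]; exact hv
        have h5 : Submodule.span F ({x} : Set V) ≤ Submodule.span F ({u, v} : Set V) := by
          apply Submodule.span_mono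
          rcases hx' with h | h <;> simp [h]
        exact Submodule.mem_comap.mpr (h5 (h2 x hxM))
      exact h4 hy

theorem planeFam_of_nondeg [FiniteDimensional F V] {B : LinearMap.BilinForm F V} (hB : B.IsAlt)
    (X : V →ₗ[F] V) (hinv : ∀ u v, B (X u) (X v) = B u v) (z : F)
    (hz : z = 1 ∨ (z = -1 ∧ (2 : F) ≠ 0)) (hX : ∀ v, X (X v) = z • v) :
    ∀ (n : ℕ) (M : Submodule F V), finrank F ↥M ≤ n → NondegOn B M → (∀ v ∈ M, X v ∈ M) →
      PlaneFam B X M := by
  intro n
  induction n with
  | zero =>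
    intro M hM _ _
    have h0 : M = ⊥ := Submodule.finrank_eq_zero.mp (by omega)
    rw [h0]
    exact planeFam_bot B X
  | succ n ih =>
    intro M hMn hM hMX
    by_cases hM0 : M = ⊥
    · rw [hM0]
      exact planeFam_bot B X
    obtain ⟨W, M', hW, hsup, horth, hlt, hnd', hinv'⟩ :=
      plane_step hB X hinv z hz hX M hM hMX hM0
    have h1 : finrank F ↥M' ≤ n := by
      have := Submodule.finrank_lt_finrank_of_lt hlt
      omega
    have h2 := ih M' h1 hnd' hinv'
    rw [← hsup]
    exact planeFam_sup hB X W M' hW h2 horth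

/-- The decomposition theorem: an isometry `X` with `X ∘ X = z • id` of a nondegenerate
alternating space of dimension `2 m t` permutes the summands of an orthogonal decomposition into
`t` nondegenerate subspaces of dimension `2 m`. -/
theorem decomp_abstract [FiniteDimensional F V] (B : LinearMap.BilinForm F V) (hB : B.IsAlt)
    (hnd : ∀ u, (∀ v, B u v = 0) → u = 0) (X : V →ₗ[F] V)
    (hinv : ∀ u v, B (X u) (X v) = B u v) (z : F) (hz : z = 1 ∨ (z = -1 ∧ (2 : F) ≠ 0))
    (hX : ∀ v, X (X v) = z • v) (m t : ℕ) (hdim : finrank F V = 2 * (m * t)) :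
    ∃ (D : Fin t → Submodule F V) (σ : Equiv.Perm (Fin t)),
      (∀ j, finrank F ↥(D j) = 2 * m) ∧ iSupIndep D ∧ iSup D = ⊤ ∧
      (∀ j, NondegOn B (D j)) ∧
      (∀ j j', j ≠ j' → ∀ u ∈ D j, ∀ v ∈ D j', B u v = 0) ∧ ∀ j, (D j).map X = D (σ j) := by
  classical
  have htop : NondegOn B (⊤ : Submodule F V) :=
    fun u _ h => hnd u (fun v => h v Submodule.mem_top)
  obtain ⟨ι, hι, P, π, hπ, hfr, horth, hsup, hmap⟩ :=
    planeFam_of_nondeg hB X hinv z hz hX (finrank F V) ⊤ (by rw [finrank_top]) htop
      (fun _ _ => Submodule.mem_top)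
  have hPnd : ∀ i, NondegOn B (P i) := nondeg_of_orth P horth hsup hnd
  have hcard : Fintype.card ι = m * t := by
    have h1 := finrank_sup_orth P horth hPnd Finset.univ
    rw [Finset.sup_univ_eq_iSup, hsup, finrank_top, hdim] at h1
    simp only [hfr, Finset.sum_const, Finset.card_univ, smul_eq_mul] at h1
    omega
  letI : LinearOrder ι := LinearOrder.lift' (Fintype.equivFin ι) (Fintype.equivFin ι).injective
  obtain ⟨g, σ, h1, h2, h3, h4, h5⟩ := regroup π hπ m t Finset.univ
    (fun i _ => Finset.mem_univ _) (by rw [Finset.card_univ, hcard])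
  let Sg : Fin t → Fin t := fun j => ⟨σ j, h2 j j.2⟩
  have hSg : Function.Involutive Sg := fun j => Fin.ext (h3 j j.2)
  let D : Fin t → Submodule F V :=
    fun j => (Finset.univ.filter (fun i => g i = (j : ℕ))).sup P
  have hDorth : ∀ j j', j ≠ j' → ∀ u ∈ D j, ∀ v ∈ D j', B u v = 0 := by
    intro j j' hjj
    apply orth_finset_sup P
    intro k hk k' hk' u hu v hv
    have e1 := (Finset.mem_filter.mp hk).2
    have e2 := (Finset.mem_filter.mp hk').2
    exact horth k k' (fun h => hjj (Fin.ext (by rw [← e1, ← e2, h]))) u hu v hv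
  have hDsup : iSup D = ⊤ := by
    rw [eq_top_iff, ← hsup]
    refine iSup_le (fun i => ?_)
    have h6 : P i ≤ D ⟨g i, h1 i (Finset.mem_univ i)⟩ :=
      Finset.le_sup (f := P) (Finset.mem_filter.mpr ⟨Finset.mem_univ i, rfl⟩)
    exact le_trans h6 (le_iSup D _)
  have hDnd : ∀ j, NondegOn B (D j) := nondeg_of_orth D hDorth hDsup hnd
  refine ⟨D, hSg.toPerm, ?_, indep_of_orth D hDorth hDnd, hDsup, hDnd, hDorth, ?_⟩
  · intro j
    have e1 := finrank_sup_orth P horth hPnd (Finset.univ.filter (fun i => g i = (j : ℕ)))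
    show finrank F ↥((Finset.univ.filter (fun i => g i = (j : ℕ))).sup P) = 2 * m
    rw [e1]
    simp only [hfr, Finset.sum_const, smul_eq_mul, h4 j j.2]
    ring
  · intro j
    show (D j).map X = D (Sg j)
    apply le_antisymm
    · rw [Submodule.map_le_iff_le_comap]
      refine Finset.sup_le (fun i hi => ?_)
      rw [← Submodule.map_le_iff_le_comap, hmap i]
      have e1 : g i = (j : ℕ) := (Finset.mem_filter.mp hi).2
      refine Finset.le_sup (f := P) (Finset.mem_filter.mpr ⟨Finset.mem_univ _, ?_⟩)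
      show g (π i) = σ j
      rw [h5 i (Finset.mem_univ i), e1]
    · refine Finset.sup_le (fun i hi => ?_)
      have e1 : g i = σ j := (Finset.mem_filter.mp hi).2
      have e2 : g (π i) = (j : ℕ) := by
        rw [h5 i (Finset.mem_univ i), e1, h3 j j.2]
      have e3 : P i = (P (π i)).map X := by rw [hmap, hπ]
      rw [e3]
      exact Submodule.map_mono
        (Finset.le_sup (f := P) (Finset.mem_filter.mpr ⟨Finset.mem_univ _, e2⟩))

end planes

end Cfsg.Agent.Lib.Helper16.SpInv
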